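import Cfsg.Agent.Comp.Extra

set_option autoImplicit false
set_option maxRecDepth 100000

namespace Cfsg.Agent.SchurG.O73
open Cfsg.Agent.Comp

def R : List (List Nat) :=
  [[0, 0],
   [1, 1],
   [2, 2],
   [3, 3],
   [4, 4],
   [5, 5],
   [6, 7],
   [7, 6],
   [8, 8],
   [9, 9],
   [10, 10],
   [11, 11],
   [0, 1, 0, 1],
   [0, 2, 0, 2],
   [1, 2, 1, 2],
   [0, 3, 0, 3],
   [1, 3, 1, 3],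
   [2, 3, 2, 3],
   [0, 4, 0, 4],
   [1, 4, 1, 4],
   [2, 4, 2, 4],
   [3, 4, 3, 4],
   [0, 5, 0, 5],
   [1, 5, 1, 5],
   [2, 5, 2, 5],
   [3, 5, 3, 5],
   [4, 5, 4, 5],
   [6, 6, 6],
   [0, 7, 1, 6],
   [0, 2, 6, 1, 7],
   [2, 5, 6, 5, 7],
   [2, 4, 7, 4, 6],
   [0, 1, 3, 7, 3, 6],
   [2, 3, 8, 2, 3, 8],
   [2, 7, 8, 6, 2, 8],
   [0, 8, 0, 8, 0, 8],
   [1, 8, 1, 8, 1, 8],
   [0, 2, 8, 5, 8, 5, 8],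
   [1, 4, 5, 8, 5, 4, 1, 8],
   [0, 5, 8, 4, 8, 3, 8, 4, 8],
   [0, 2, 9, 1, 9],
   [1, 2, 9, 4, 9],
   [3, 7, 9, 3, 9, 6],
   [5, 6, 9, 5, 9, 7],
   [6, 9, 6, 9, 6, 9],
   [6, 8, 9, 8, 6, 8, 9, 8],
   [0, 1, 6, 2, 7],
   [8, 9, 8, 9, 8, 9, 8, 9],
   [1, 10, 1, 10],
   [2, 10, 2, 10],
   [0, 2, 10, 0, 10],
   [2, 4, 10, 4, 10],
   [2, 5, 10, 5, 10],
   [0, 1, 7, 10, 7, 10],
   [3, 4, 10, 3, 5, 10],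
   [1, 3, 9, 1, 3, 9],
   [3, 7, 8, 6, 3, 8],
   [0, 4, 7, 9, 6, 10, 9, 10],
   [0, 2, 4, 9, 2, 9],
   [8, 10, 8, 10, 8, 10, 8, 10],
   [0, 1, 9, 1, 4, 9],
   [2, 8, 10, 8, 2, 8, 10, 8, 2, 8, 10, 8],
   [2, 8, 9, 8, 2, 10, 8, 9, 8, 2, 10, 8, 9, 8, 10],
   [0, 8, 10, 2, 9, 8, 9, 2, 10, 8, 0, 10, 9, 8, 9, 10],
   [0, 11, 1, 11],
   [6, 11, 6, 11],
   [0, 5, 11, 4, 11],
   [0, 2, 7, 0, 6],
   [6, 8, 7, 11, 8, 11],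
   [2, 6, 10, 11, 10, 11],
   [1, 4, 11, 5, 11],
   [0, 1, 2, 11, 2, 11],
   [0, 1, 6, 8, 2, 7, 8],
   [6, 9, 7, 11, 9, 7, 11, 9, 11]]

def iv : Nat := 493858305407296047136

/-- the presented group -/
abbrev G : Type := Pres 12 R

/-- the letters -/
def s : ℕ → G := presS 12 R

theorem hR : ∀ w ∈ R, ∀ x ∈ w, x < 12 := by decide +kernel

theorem pres : IsPres s 12 R := isPres_pres hR

end Cfsg.Agent.SchurG.O73
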